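import Mathlib
import Cfsg.Agent.Lib.Helper73.HA.Defs
import Cfsg.Agent.Lib.Helper3.BurnsidePQ

set_option autoImplicit false

/-!
Package [1B] of project HA: `Alt(Ω)` of prime degree `n ≥ 5` has no Hall `{2, n}`-subgroup
(from the packages 1Ba, 1Bb, 1Bc).
-/

namespace Cfsg.Agent.Lib.Helper11.HA

open Equiv
open Cfsg.Agent.Lib.Helper73.HA

universe u

/-- a nonzero number whose prime divisors are `p` or `q` is `p ^ a * q ^ b` -/
theorem eq_pow_mul_pow_of_primes {m p q : ℕ} (hm : m ≠ 0) (hp : p.Prime) (hq : q.Prime)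
    (hpq : p ≠ q) (h : ∀ r : ℕ, r.Prime → r ∣ m → r = p ∨ r = q) :
    m = p ^ (m.factorization p) * q ^ (m.factorization q) := by
  apply Nat.eq_of_factorization_eq hm
    (mul_ne_zero (pow_ne_zero _ hp.ne_zero) (pow_ne_zero _ hq.ne_zero))
  intro r
  rw [Nat.factorization_mul (pow_ne_zero _ hp.ne_zero) (pow_ne_zero _ hq.ne_zero),
    Nat.factorization_pow, Nat.factorization_pow, hp.factorization, hq.factorization]
  simp only [Finsupp.coe_add, Finsupp.coe_smul, Pi.add_apply, Pi.smul_apply, smul_eq_mul,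
    Finsupp.single_apply]
  by_cases hrp : r = p
  · rw [hrp, if_pos rfl, if_neg (Ne.symm hpq), mul_one, mul_zero, add_zero]
  · by_cases hrq : r = q
    · rw [hrq, if_pos rfl, if_neg hpq, mul_one, mul_zero, zero_add]
    · have h0 : m.factorization r = 0 := by
        by_cases hr : r.Prime
        · apply Nat.factorization_eq_zero_of_not_dvd
          intro hd
          rcases h r hr hd with h1 | h1
          · exact hrp h1
          · exact hrq h1
        · exact Nat.factorization_eq_zero_of_not_prime m hr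
      rw [h0, if_neg (Ne.symm hrp), if_neg (Ne.symm hrq), mul_zero, mul_zero, add_zero]

theorem lem1B_of (ha : Lem1Ba.{u}) (hb : Lem1Bb.{u}) (hc : Lem1Bc.{u}) : Lem1B.{u} := by
  intro Ω _ _ π K hK hprime h5 h2π hnπ hπ
  classical
  obtain ⟨hKA, hKπ, hKidx⟩ := hK
  haveI : Fact (Fintype.card Ω).Prime := ⟨hprime⟩
  haveI : Nontrivial Ω := Fintype.one_lt_card_iff_nontrivial.mp hprime.one_lt
  have hn2 : Fintype.card Ω ≠ 2 := by omega
  -- the order of K
  have hKdvd : Nat.card ↥K ∣ (Fintype.card Ω).factorial := by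
    have h1 : Nat.card ↥K ∣ Nat.card (Perm Ω) := Subgroup.card_subgroup_dvd_card K
    rwa [Nat.card_eq_fintype_card (α := Perm Ω), Fintype.card_perm] at h1
  have hcard : Nat.card ↥K = 2 ^ ((Nat.card ↥K).factorization 2) *
      (Fintype.card Ω) ^ ((Nat.card ↥K).factorization (Fintype.card Ω)) := by
    apply eq_pow_mul_pow_of_primes Nat.card_pos.ne' Nat.prime_two hprime (Ne.symm hn2)
    intro r hr hrd
    have hrle : r ≤ Fintype.card Ω := (hr.dvd_factorial).mp (hrd.trans hKdvd)
    exact hπ r hr (hKπ r hr hrd) hrle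
  haveI hsolv : Group.IsSolvable ↥K :=
    Cfsg.Agent.Lib.Helper3.burnside_paqb (Nat.card ↥K) ↥K 2 (Fintype.card Ω) _ _ Nat.prime_two
      hprime rfl hcard
  -- n divides |K|
  have hnK : Fintype.card Ω ∣ Nat.card ↥K := by
    have h1 : Nat.card ↥K * K.relIndex (alternatingGroup Ω) = Nat.card ↥(alternatingGroup Ω) := by
      have := Subgroup.relIndex_mul_relIndex ⊥ K (alternatingGroup Ω) bot_le hKA
      rwa [Subgroup.relIndex_bot_left, Subgroup.relIndex_bot_left] at this
    have h2 : 2 * Nat.card ↥(alternatingGroup Ω) = (Fintype.card Ω).factorial := by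
      rw [two_mul_nat_card_alternatingGroup, Nat.card_eq_fintype_card (α := Perm Ω),
        Fintype.card_perm]
    have h3 : Fintype.card Ω ∣ 2 * Nat.card ↥(alternatingGroup Ω) := by
      rw [h2]
      exact Nat.dvd_factorial hprime.pos le_rfl
    have h4 : Fintype.card Ω ∣ Nat.card ↥(alternatingGroup Ω) := by
      rcases (Nat.Prime.dvd_mul hprime).mp h3 with h | h
      · exact absurd ((Nat.prime_dvd_prime_iff_eq hprime Nat.prime_two).mp h) hn2
      · exact h
    rw [← h1] at h4
    rcases (Nat.Prime.dvd_mul hprime).mp h4 with h | h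
    · exact h
    · exact absurd h (hKidx _ hprime hnπ)
  -- an element of order n, hence transitivity
  obtain ⟨c0, hc0⟩ := exists_prime_orderOf_dvd_card' (G := ↥K) (Fintype.card Ω) hnK
  have hc0ord : orderOf (c0 : Perm Ω) = Fintype.card Ω := by
    rw [Subgroup.orderOf_coe]; exact hc0
  have hcyc : (c0 : Perm Ω).IsCycle := Equiv.Perm.isCycle_of_prime_order'' hprime hc0ord
  have hsupp : (c0 : Perm Ω).support = Finset.univ := by
    apply Finset.eq_univ_of_card
    rw [← hcyc.orderOf, hc0ord]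
  have hmoves : ∀ x : Ω, (c0 : Perm Ω) x ≠ x := by
    intro x
    rw [← Equiv.Perm.mem_support, hsupp]
    exact Finset.mem_univ x
  have htrans : ∀ x y : Ω, ∃ k ∈ K, k x = y := by
    intro x y
    obtain ⟨i, hi⟩ := hcyc.exists_zpow_eq (hmoves x) (hmoves y)
    exact ⟨(c0 : Perm Ω) ^ i, K.zpow_mem c0.2 i, hi⟩
  obtain ⟨c, hcK, hcord, hcnorm⟩ := ha Ω K hprime htrans hsolv
  obtain ⟨s, t, ω, hs, ht, hsω, htω, hss, htt, hs1, ht1, hst⟩ :=
    hc Ω π K ⟨hKA, hKπ, hKidx⟩ h2π h5
  exact hst (hb Ω K c hprime hcK hcord hcnorm s t ω hs ht hsω htω hss htt hs1 ht1)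

end Cfsg.Agent.Lib.Helper11.HA
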