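import Mathlib
import Cfsg.Agent.Lib.Helper73.HA.Defs

set_option autoImplicit false

/-!
Package [1Ba] of project HA: a solvable transitive permutation group of prime degree has a
normal subgroup generated by an element whose order is the degree.
-/

namespace Cfsg.Agent.Lib.Helper11.HA

open Equiv MulAction

universe u

/-- a nontrivial solvable group has a nontrivial abelian normal subgroup -/
theorem exists_abelian_normal_of_solvable {G : Type*} [Group G] [hs : Group.IsSolvable G]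
    [Nontrivial G] :
    ∃ N : Subgroup G, N.Normal ∧ N ≠ ⊥ ∧ ∀ a ∈ N, ∀ b ∈ N, a * b = b * a := by
  classical
  have hex : ∃ n, derivedSeries G n = ⊥ := hs.solvable
  have h0 : Nat.find hex ≠ 0 := by
    intro h
    have := Nat.find_spec hex
    rw [h, derivedSeries_zero] at this
    exact top_ne_bot this
  obtain ⟨m, hm⟩ := Nat.exists_eq_succ_of_ne_zero h0
  refine ⟨derivedSeries G m, derivedSeries_normal G m, ?_, ?_⟩
  · intro h
    have := Nat.find_min' hex h
    omega
  · intro a ha b hb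
    have hbot : ⁅derivedSeries G m, derivedSeries G m⁆ = ⊥ := by
      have := Nat.find_spec hex
      rw [hm, derivedSeries_succ] at this
      exact this
    have hle := Subgroup.commutator_eq_bot_iff_le_centralizer.mp hbot
    have := Subgroup.mem_centralizer_iff.mp (hle ha) b hb
    exact this.symm

theorem lem1Ba : Cfsg.Agent.Lib.Helper73.HA.Lem1Ba.{u} := by
  intro Ω _ _ K hprime htrans hsolv
  classical
  haveI : Fact (Fintype.card Ω).Prime := ⟨hprime⟩
  haveI hpt : IsPretransitive ↥K Ω := ⟨fun x y => by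
    obtain ⟨k, hk, h⟩ := htrans x y
    exact ⟨⟨k, hk⟩, h⟩⟩
  haveI hpp : IsPreprimitive ↥K Ω :=
    IsPreprimitive.of_prime_card (by rw [Nat.card_eq_fintype_card]; exact hprime)
  obtain ⟨x0, y0, hxy⟩ := Fintype.exists_pair_of_one_lt_card hprime.one_lt
  haveI : Nontrivial ↥K := by
    obtain ⟨k, hk, h⟩ := htrans x0 y0
    refine ⟨⟨⟨k, hk⟩, 1, ?_⟩⟩
    intro h1
    have : k = 1 := congrArg Subtype.val h1
    rw [this] at h
    exact hxy h
  obtain ⟨N, hNn, hN1, hNc⟩ := exists_abelian_normal_of_solvable (G := ↥K)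
  haveI := hNn
  have hfix : fixedPoints ↥N Ω ≠ Set.univ := by
    intro h
    apply hN1
    rw [eq_bot_iff]
    intro g hg
    rw [Subgroup.mem_bot]
    apply Subtype.ext
    ext x
    have hx : x ∈ fixedPoints ↥N Ω := by rw [h]; exact Set.mem_univ x
    exact hx ⟨g, hg⟩
  haveI hNt : IsPretransitive ↥N Ω := IsQuasiPreprimitive.isPretransitive_of_normal hfix
  have hstab : stabilizer ↥N x0 = ⊥ := by
    rw [eq_bot_iff]
    intro g hg
    rw [Subgroup.mem_bot]
    have hg' : g • x0 = x0 := hg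
    apply Subtype.ext
    apply Subtype.ext
    ext y
    obtain ⟨h, rfl⟩ := exists_smul_eq ↥N x0 y
    have hcomm : g * h = h * g := Subtype.ext (hNc g g.2 h h.2)
    show g • (h • x0) = h • x0
    rw [smul_smul, hcomm, ← smul_smul, hg']
  have hcard : Nat.card ↥N = Fintype.card Ω := by
    have h1 := index_stabilizer_of_transitive (G := ↥N) (x := x0)
    rw [hstab, Subgroup.index_bot] at h1
    rw [h1, Nat.card_eq_fintype_card]
  obtain ⟨c, hcN, hc1⟩ : ∃ c ∈ N, c ≠ 1 := by
    by_contra hcon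
    push_neg at hcon
    exact hN1 (eq_bot_iff.mpr fun g hg => Subgroup.mem_bot.mpr (hcon g hg))
  have hc1' : (⟨c, hcN⟩ : ↥N) ≠ 1 := fun h => hc1 (congrArg Subtype.val h)
  refine ⟨(c : Perm Ω), c.2, ?_, ?_⟩
  · have hz : Subgroup.zpowers (⟨c, hcN⟩ : ↥N) = ⊤ := zpowers_eq_top_of_prime_card hcard hc1'
    have h1 : orderOf (⟨c, hcN⟩ : ↥N) = Fintype.card Ω := by
      rw [← Nat.card_zpowers, hz, Subgroup.card_top, hcard]
    rw [← h1, ← Subgroup.orderOf_coe, ← Subgroup.orderOf_coe]
  · intro k hk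
    have hmem : (⟨k, hk⟩ : ↥K) * c * (⟨k, hk⟩ : ↥K)⁻¹ ∈ N := hNn.conj_mem c hcN ⟨k, hk⟩
    have hz : (⟨_, hmem⟩ : ↥N) ∈ Subgroup.zpowers (⟨c, hcN⟩ : ↥N) :=
      mem_zpowers_of_prime_card hcard hc1'
    obtain ⟨i, hi⟩ := Subgroup.mem_zpowers_iff.mp hz
    rw [Subgroup.mem_zpowers_iff]
    refine ⟨i, ?_⟩
    have := congrArg (fun z : ↥N => ((z : ↥K) : Perm Ω)) hi
    simpa using this

end Cfsg.Agent.Lib.Helper11.HA
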