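import Mathlib
import Cfsg.Agent.Lib.Helper73.HA.Defs2
import Cfsg.Agent.Lib.Helper78.HT.SetStab

set_option autoImplicit false

/-!
Package [W-PRIME] of project HA (part 2): a fixed-point-free `π`-subgroup of `Alt(Ω)`.
-/

namespace Cfsg.Agent.Lib.Helper11.HA

open Equiv
open Cfsg.Agent.Lib.Helper78.HT

universe u

theorem swap_mem_setStab_of_mem {Ω : Type*} [DecidableEq Ω] {s : Finset Ω} {c d : Ω}
    (hc : c ∈ s) (hd : d ∈ s) : swap c d ∈ setStab s := by
  rw [mem_setStab]
  intro x
  by_cases hxc : x = c
  · subst hxc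
    rw [swap_apply_left]
    exact ⟨fun _ => hc, fun _ => hd⟩
  · by_cases hxd : x = d
    · subst hxd
      rw [swap_apply_right]
      exact ⟨fun _ => hd, fun _ => hc⟩
    · rw [swap_apply_of_ne_of_ne hxc hxd]

theorem swap_mem_setStab_of_notMem {Ω : Type*} [DecidableEq Ω] {s : Finset Ω} {c d : Ω}
    (hc : c ∉ s) (hd : d ∉ s) : swap c d ∈ setStab s := by
  rw [mem_setStab]
  intro x
  by_cases hxc : x = c
  · subst hxc
    rw [swap_apply_left]
    exact ⟨fun h => absurd h hd, fun h => absurd h hc⟩
  · by_cases hxd : x = d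
    · subst hxd
      rw [swap_apply_right]
      exact ⟨fun h => absurd h hc, fun h => absurd h hd⟩
    · rw [swap_apply_of_ne_of_ne hxc hxd]

theorem lemWPrime : Cfsg.Agent.Lib.Helper73.HA.LemWPrime.{u} := by
  intro Ω _ _ π h5 hπ
  classical
  obtain ⟨a, b, hab⟩ := Fintype.exists_pair_of_one_lt_card (α := Ω) (by omega)
  have hcard2 : ({a, b} : Finset Ω).card = 2 := Finset.card_pair hab
  refine ⟨alternatingGroup Ω ⊓ setStab ({a, b} : Finset Ω), inf_le_left, ?_, ?_⟩
  · -- order
    intro p hp hpd
    apply hπ p hp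
    have h1 : Nat.card ↥(setStab ({a, b} : Finset Ω)) * (setStab ({a, b} : Finset Ω)).index
        = (Fintype.card Ω).factorial := by
      rw [Subgroup.card_mul_index, Nat.card_eq_fintype_card, Fintype.card_perm]
    rw [index_setStab, hcard2] at h1
    have h2 := Nat.choose_mul_factorial_mul_factorial (n := Fintype.card Ω) (k := 2) (by omega)
    have hpos : 0 < (Fintype.card Ω).choose 2 := Nat.choose_pos (by omega)
    have h3 : Nat.card ↥(setStab ({a, b} : Finset Ω)) = 2 * (Fintype.card Ω - 2).factorial := by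
      have : Nat.card ↥(setStab ({a, b} : Finset Ω)) * (Fintype.card Ω).choose 2
          = (2 * (Fintype.card Ω - 2).factorial) * (Fintype.card Ω).choose 2 := by
        rw [h1, ← h2]
        simp only [Nat.factorial]
        ring
      exact Nat.eq_of_mul_eq_mul_right hpos this
    have h4 : p ∣ 2 * (Fintype.card Ω - 2).factorial := by
      rw [← h3]
      exact hpd.trans (Subgroup.card_dvd_of_le inf_le_right)
    rcases (Nat.Prime.dvd_mul hp).mp h4 with h | h
    · have : p = 2 := (Nat.prime_dvd_prime_iff_eq hp Nat.prime_two).mp h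
      omega
    · have := (hp.dvd_factorial).mp h
      omega
  · -- no fixed point
    intro ω
    by_cases hω : ω ∈ ({a, b} : Finset Ω)
    · -- use (a b)(c d)
      have hc2 : 1 < (({a, b} : Finset Ω)ᶜ).card := by
        rw [Finset.card_compl, hcard2]; omega
      obtain ⟨c, hc, d, hd, hcd⟩ := Finset.one_lt_card.mp hc2
      rw [Finset.mem_compl] at hc hd
      have hca : c ≠ a := fun h => hc (by rw [h]; simp)
      have hcb : c ≠ b := fun h => hc (by rw [h]; simp)
      have hda : d ≠ a := fun h => hd (by rw [h]; simp)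
      have hdb : d ≠ b := fun h => hd (by rw [h]; simp)
      refine ⟨swap a b * swap c d, Subgroup.mem_inf.mpr ⟨?_, ?_⟩, ?_⟩
      · rw [Equiv.Perm.mem_alternatingGroup, Equiv.Perm.sign_mul, Equiv.Perm.sign_swap hab,
          Equiv.Perm.sign_swap hcd]
        rfl
      · exact Subgroup.mul_mem _ (swap_mem_setStab_of_mem (by simp) (by simp))
          (swap_mem_setStab_of_notMem hc hd)
      · rw [Finset.mem_insert, Finset.mem_singleton] at hω
        rcases hω with rfl | rfl
        · rw [Equiv.Perm.mul_apply, swap_apply_of_ne_of_ne (Ne.symm hca) (Ne.symm hda),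
            swap_apply_left]
          exact Ne.symm hab
        · rw [Equiv.Perm.mul_apply, swap_apply_of_ne_of_ne (Ne.symm hcb) (Ne.symm hdb),
            swap_apply_right]
          exact hab
    · -- use the 3-cycle (ω y z)
      have hc3 : (({a, b, ω} : Finset Ω)).card ≤ 3 := Finset.card_le_three
      have hc2 : 1 < (({a, b, ω} : Finset Ω)ᶜ).card := by
        rw [Finset.card_compl]; omega
      obtain ⟨y, hy, z, hz, hyz⟩ := Finset.one_lt_card.mp hc2
      rw [Finset.mem_compl] at hy hz
      have hyab : y ∉ ({a, b} : Finset Ω) := fun h => hy (by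
        rw [Finset.mem_insert, Finset.mem_singleton] at h
        rcases h with rfl | rfl <;> simp)
      have hzab : z ∉ ({a, b} : Finset Ω) := fun h => hz (by
        rw [Finset.mem_insert, Finset.mem_singleton] at h
        rcases h with rfl | rfl <;> simp)
      have hyω : y ≠ ω := fun h => hy (by rw [h]; simp)
      have hzω : z ≠ ω := fun h => hz (by rw [h]; simp)
      refine ⟨swap ω y * swap y z, Subgroup.mem_inf.mpr ⟨?_, ?_⟩, ?_⟩
      · rw [Equiv.Perm.mem_alternatingGroup, Equiv.Perm.sign_mul,
          Equiv.Perm.sign_swap (Ne.symm hyω), Equiv.Perm.sign_swap hyz]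
        rfl
      · exact Subgroup.mul_mem _ (swap_mem_setStab_of_notMem hω hyab)
          (swap_mem_setStab_of_notMem hyab hzab)
      · rw [Equiv.Perm.mul_apply, swap_apply_of_ne_of_ne (Ne.symm hyω) (Ne.symm hzω),
          swap_apply_left]
        exact hyω

end Cfsg.Agent.Lib.Helper11.HA
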